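import Mathlib
import Cfsg.Prelude.Def_Classical
import Cfsg.Agent.H125.Hall.CoreRow
import Cfsg.Agent.H408.Hall.MTwo

/-!
# S2223, N2: `CoreRow` for `SL_n(q)`, `q = 1 mod 4`, and `SU_n(q)`, `q = 3 mod 4` (helper590)

`T` is the group of the diagonal matrices of determinant 1 with entries in `{1, -1, i, -i}`. If `T ≤ H` and `H` is a
`p'`-group then the squares of the elements of `T` with at most two different entries lie in `O₂(H)`
(`mem_pCore_of_aeval`), so only diagonal matrices commute with `O₂(H)`.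
-/

set_option autoImplicit false

namespace Cfsg.Agent.H590.Hall

open Subgroup Cfsg.Agent.H125.Hall Polynomial

section Gen

variable {F : Type} [Field F] [Fintype F] {p : ℕ} [Fact p.Prime] [CharP F p] {n : ℕ} {X : Type*} [Group X] [Finite X]

omit [Fintype F] in
/-- a matrix which commutes with enough diagonal matrices is diagonal -/
theorem isDiag_of_comm {M : Matrix (Fin n) (Fin n) F}
    (h : ∀ k l : Fin n, k ≠ l → ∃ d : Fin n → F, d k ≠ d l ∧ M * Matrix.diagonal d = Matrix.diagonal d * M) :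
    ∃ m : Fin n → F, M = Matrix.diagonal m := by
  refine ⟨fun k => M k k, ?_⟩
  ext k l
  by_cases hkl : k = l
  · subst hkl; rw [Matrix.diagonal_apply_eq]
  · rw [Matrix.diagonal_apply_ne _ hkl]
    obtain ⟨d, hd, hc⟩ := h k l hkl
    have h1 := congrFun (congrFun hc k) l
    rw [Matrix.mul_diagonal, Matrix.diagonal_mul] at h1
    have h2 : (d k - d l) * M k l = 0 := by rw [sub_mul, ← h1]; ring
    exact (mul_eq_zero.1 h2).resolve_left (sub_ne_zero.2 hd)

/-- the general criterion -/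
theorem coreRow_gen (ρ : X →* Matrix.SpecialLinearGroup (Fin n) F) (hρ : Function.Injective ρ)
    (hD : ∀ d : Fin n → F, (∀ k, d k ^ 4 = 1) → ∏ k, d k = 1 →
      ∃ x : X, Cfsg.slToMat n F (ρ x) = Matrix.diagonal d)
    (hsep : ∀ k l : Fin n, k ≠ l → ∃ (d : Fin n → F) (a b : F), (∀ j, d j = a ∨ d j = b) ∧ (∀ j, d j ^ 4 = 1) ∧
      ∏ j, d j = 1 ∧ d k ^ 2 ≠ d l ^ 2) : CoreRow p X := by
  have hinj : ∀ x y : X, Cfsg.slToMat n F (ρ x) = Cfsg.slToMat n F (ρ y) → x = y := by
    intro x y h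
    apply hρ
    exact Subtype.ext h
  let T : Subgroup X :=
    { carrier := {x | ∃ d : Fin n → F, (∀ k, d k ^ 4 = 1) ∧ Cfsg.slToMat n F (ρ x) = Matrix.diagonal d}
      one_mem' := ⟨1, fun k => one_pow 4, by rw [map_one, map_one, ← Matrix.diagonal_one]; rfl⟩
      mul_mem' := by
        rintro x y ⟨d, hd, hx⟩ ⟨e, he, hy⟩
        refine ⟨fun k => d k * e k, fun k => by rw [mul_pow, hd, he, one_mul], ?_⟩
        rw [map_mul, map_mul, hx, hy, Matrix.diagonal_mul_diagonal]
      inv_mem' := by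
        rintro x ⟨d, hd, hx⟩
        refine ⟨fun k => d k ^ 3, fun k => by rw [← pow_mul, mul_comm 3 4, pow_mul, hd, one_pow], ?_⟩
        have h1 : Cfsg.slToMat n F (ρ x) * Matrix.diagonal (fun k => d k ^ 3) = 1 := by
          rw [hx, Matrix.diagonal_mul_diagonal, ← Matrix.diagonal_one]
          congr 1
          funext k
          rw [← pow_succ', hd]
        have h2 : Cfsg.slToMat n F (ρ x⁻¹) * Cfsg.slToMat n F (ρ x) = 1 := by
          rw [← map_mul, ← map_mul, inv_mul_cancel, map_one, map_one]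
        calc Cfsg.slToMat n F (ρ x⁻¹) = Cfsg.slToMat n F (ρ x⁻¹) *
              (Cfsg.slToMat n F (ρ x) * Matrix.diagonal (fun k => d k ^ 3)) := by rw [h1, mul_one]
          _ = Matrix.diagonal (fun k => d k ^ 3) := by rw [← mul_assoc, h2, one_mul] }
  have hTmem : ∀ x, x ∈ T ↔ ∃ d : Fin n → F, (∀ k, d k ^ 4 = 1) ∧ Cfsg.slToMat n F (ρ x) = Matrix.diagonal d :=
    fun x => Iff.rfl
  refine ⟨T, ?_, ?_⟩
  · rintro ⟨x, hx⟩
    refine ⟨2, ?_⟩
    obtain ⟨d, hd, hx'⟩ := (hTmem x).1 hx
    apply Subtype.ext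
    apply hinj
    show Cfsg.slToMat n F (ρ (x ^ 2 ^ 2)) = Cfsg.slToMat n F (ρ 1)
    rw [map_pow, map_pow, hx', Matrix.diagonal_pow, map_one, map_one, ← Matrix.diagonal_one]
    congr 1
    funext k
    exact hd k
  · intro H hTH hp g hg c hc
    -- `g` is diagonal
    obtain ⟨m, hm⟩ := isDiag_of_comm (M := Cfsg.slToMat n F (ρ g)) (by
      intro k l hkl
      obtain ⟨d, a, b, hab, hd4, hd1, hne⟩ := hsep k l hkl
      obtain ⟨x, hx⟩ := hD d hd4 hd1
      refine ⟨d, fun h => hne (by rw [h]), ?_⟩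
      have h4 := congrArg (fun z => Cfsg.slToMat n F (ρ z)) (hg x ⟨d, hd4, hx⟩)
      simp only [map_mul, hx] at h4
      exact h4)
    -- `c` is diagonal
    obtain ⟨m', hm'⟩ := isDiag_of_comm (M := Cfsg.slToMat n F (ρ c)) (by
      intro k l hkl
      obtain ⟨d, a, b, hab, hd4, hd1, hne⟩ := hsep k l hkl
      obtain ⟨x, hx⟩ := hD d hd4 hd1
      refine ⟨fun j => d j ^ 2, hne, ?_⟩
      have hxT : x ∈ T := ⟨d, hd4, hx⟩
      have hxH : x ∈ H := hTH hxT
      -- the natural representation of `H`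
      let σ : Representation F H (Fin n → F) :=
        ((Matrix.toLinAlgEquiv' : Matrix (Fin n) (Fin n) F ≃ₐ[F] _) : Matrix (Fin n) (Fin n) F →* _).comp
          ((Cfsg.slToMat n F).comp (ρ.comp H.subtype))
      have hσ : ∀ y : H, σ y = Matrix.toLinAlgEquiv' (Cfsg.slToMat n F (ρ y)) := fun y => rfl
      have hσ1 : ∀ y : H, σ y = 1 → y = 1 := by
        intro y hy
        rw [hσ] at hy
        have h1 : Cfsg.slToMat n F (ρ y) = 1 := by
          apply (Matrix.toLinAlgEquiv' : Matrix (Fin n) (Fin n) F ≃ₐ[F] _).injective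
          rw [hy, map_one]
        apply Subtype.ext
        apply hinj
        rw [h1]
        show (1 : Matrix (Fin n) (Fin n) F) = Cfsg.slToMat n F (ρ 1)
        rw [map_one, map_one]
      have h2 : (⟨x, hxH⟩ : H) ^ 2 ^ 1 ∈ Cfsg.pCore 2 H := by
        refine Cfsg.Agent.H408.Hall.MTwo.mem_pCore_of_aeval (g := (Polynomial.X - C a) * (Polynomial.X - C b)) hp σ hσ1 ⟨2, ?_⟩
          (mul_ne_zero (X_sub_C_ne_zero a) (X_sub_C_ne_zero b)) ?_ ?_
        · apply Subtype.ext
          apply hinj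
          show Cfsg.slToMat n F (ρ (x ^ 2 ^ 2)) = Cfsg.slToMat n F (ρ 1)
          rw [map_pow, map_pow, hx, Matrix.diagonal_pow, map_one, map_one, ← Matrix.diagonal_one]
          congr 1
          funext k
          exact hd4 k
        · rw [natDegree_mul (X_sub_C_ne_zero a) (X_sub_C_ne_zero b), natDegree_X_sub_C, natDegree_X_sub_C]
          norm_num
        · rw [hσ]
          rw [show (Matrix.toLinAlgEquiv' (Cfsg.slToMat n F (ρ ((⟨x, hxH⟩ : H) : X)))) =
            (Matrix.toLinAlgEquiv' : Matrix (Fin n) (Fin n) F ≃ₐ[F] _).toAlgHom (Matrix.diagonal d) by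
              rw [← hx]; rfl, aeval_algHom_apply]
          have h3 : aeval (Matrix.diagonal d) ((Polynomial.X - C a) * (Polynomial.X - C b)) = 0 := by
            rw [map_mul, map_sub, map_sub, aeval_X, aeval_C, aeval_C, Matrix.algebraMap_eq_diagonal,
              Matrix.algebraMap_eq_diagonal, Matrix.diagonal_sub, Matrix.diagonal_sub,
              Matrix.diagonal_mul_diagonal, ← Matrix.diagonal_zero]
            congr 1
            funext j
            rcases hab j with h | h
            · simp [h]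
            · simp [h]
          rw [h3, map_zero]
      have h3 := hc _ h2
      have h4 := congrArg (fun z => Cfsg.slToMat n F (ρ z)) h3
      have h5 : Cfsg.slToMat n F (ρ (((⟨x, hxH⟩ : H) ^ 2 ^ 1 : H) : X)) = Matrix.diagonal (fun j => d j ^ 2) := by
        show Cfsg.slToMat n F (ρ (x ^ 2 ^ 1)) = _
        rw [map_pow, map_pow, hx, Matrix.diagonal_pow]
        rfl
      simp only [map_mul, h5] at h4
      exact h4)
    apply hinj
    rw [map_mul, map_mul, map_mul, map_mul, hm, hm', Matrix.diagonal_mul_diagonal,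
      Matrix.diagonal_mul_diagonal]
    congr 1
    funext k
    exact mul_comm _ _

omit [Fintype F] in
theorem exists_sep {i : F} (hi : i ^ 2 = -1) (h2 : (2 : F) ≠ 0) (hn : 3 ≤ n) (hn4 : n ≠ 4) (k l : Fin n)
    (hkl : k ≠ l) : ∃ (d : Fin n → F) (a b : F), (∀ j, d j = a ∨ d j = b) ∧ (∀ j, d j ^ 4 = 1) ∧
      ∏ j, d j = 1 ∧ d k ^ 2 ≠ d l ^ 2 := by
  have hi4 : i ^ 4 = 1 := by rw [show (4 : ℕ) = 2 * 2 from rfl, pow_mul, hi]; ring
  have hne : (-1 : F) ≠ 1 := by
    intro h
    apply h2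
    have h3 : (1 : F) + 1 = 0 := by nth_rw 1 [← h]; ring
    rw [← one_add_one_eq_two, h3]
  rcases Nat.eq_or_lt_of_le hn with h3 | h3
  · -- `n = 3`
    subst h3
    refine ⟨fun j => if j = l then -1 else i, i, -1, ?_, ?_, ?_, ?_⟩
    · intro j
      by_cases hj : j = l
      · right; simp [hj]
      · left; simp [hj]
    · intro j
      by_cases hj : j = l
      · simp only [hj, if_true]; ring
      · simp only [hj, if_false]; exact hi4
    · rw [Fin.prod_univ_three]
      fin_cases l <;> simp <;> linear_combination -hi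
    · simp only [hkl, if_false, if_true]
      rw [hi]
      intro h
      apply hne
      rw [h]; ring
  · -- `n ≥ 5`
    have h5 : 5 ≤ n := by omega
    obtain ⟨J, hkJ, hJl, hJ⟩ := Finset.exists_subsuperset_card_eq (s := {k}) (t := Finset.univ.erase l) (n := 4)
      (by
        rw [Finset.singleton_subset_iff, Finset.mem_erase]
        exact ⟨hkl, Finset.mem_univ k⟩)
      (by simp) (by rw [Finset.card_erase_of_mem (Finset.mem_univ l), Finset.card_univ, Fintype.card_fin]; omega)
    have hk : k ∈ J := hkJ (Finset.mem_singleton_self k)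
    have hl : l ∉ J := fun h => by
      have := hJl h
      simp at this
    refine ⟨fun j => if j ∈ J then i else 1, i, 1, ?_, ?_, ?_, ?_⟩
    · intro j
      by_cases hj : j ∈ J
      · left; simp [hj]
      · right; simp [hj]
    · intro j
      by_cases hj : j ∈ J
      · simp only [hj, if_true]; exact hi4
      · simp only [hj, if_false]; ring
    · rw [Finset.prod_ite_mem, Finset.univ_inter, Finset.prod_const, hJ, hi4]
    · simp only [hk, hl, if_true, if_false]
      rw [hi, one_pow]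
      exact hne

end Gen

theorem two_ne_zero_of_mod {F : Type} [Field F] [Fintype F] (h4 : Fintype.card F % 4 = 1) : (2 : F) ≠ 0 := by
  refine Ring.two_ne_zero ?_
  rw [Ne, FiniteField.even_card_iff_char_two]
  omega

theorem exists_i {F : Type} [Field F] [Fintype F] (h4 : Fintype.card F % 4 = 1) : ∃ i : F, i ^ 2 = -1 := by
  obtain ⟨i, hi⟩ := (FiniteField.isSquare_neg_one_iff (F := F)).2 (by omega)
  exact ⟨i, by rw [hi]; ring⟩

/-- `CoreRow` for `SL_n(q)`, `q = 1 mod 4` -/
theorem coreRow_sl_one {F : Type} [Field F] [Fintype F] {p : ℕ} [Fact p.Prime] [CharP F p]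
    (h4 : Fintype.card F % 4 = 1) {n : ℕ} (hn : 3 ≤ n) (hn4 : n ≠ 4) :
    CoreRow p (Matrix.SpecialLinearGroup (Fin n) F) := by
  obtain ⟨i, hi⟩ := exists_i h4
  refine coreRow_gen (MonoidHom.id _) Function.injective_id ?_
    (exists_sep hi (two_ne_zero_of_mod h4) hn hn4)
  intro d hd hd1
  exact ⟨⟨Matrix.diagonal d, by rw [Matrix.det_diagonal, hd1]⟩, rfl⟩

/-- `CoreRow` for `SU_n(q)`, `q = 3 mod 4` -/
theorem coreRow_su_three {F : Type} [Field F] [Fintype F] {p : ℕ} [Fact p.Prime] [CharP F p] {n q : ℕ}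
    (hq : Fintype.card F = q ^ 2) (h4 : q % 4 = 3) (hn : 3 ≤ n) (hn4 : n ≠ 4) : CoreRow p (Cfsg.SU n F q) := by
  have h1 : Fintype.card F % 4 = 1 := by
    rw [hq, Nat.pow_mod, h4]
  obtain ⟨i, hi⟩ := exists_i h1
  refine coreRow_gen (Cfsg.SU n F q).subtype (Subgroup.subtype_injective _) ?_
    (exists_sep hi (two_ne_zero_of_mod h1) hn hn4)
  intro d hd hd1
  refine ⟨⟨⟨Matrix.diagonal d, by rw [Matrix.det_diagonal, hd1]⟩, ?_⟩, rfl⟩
  intro u v
  show Cfsg.hermForm n F q (Matrix.mulVec (Matrix.diagonal d) u) (Matrix.mulVec (Matrix.diagonal d) v) = _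
  unfold Cfsg.hermForm
  refine Finset.sum_congr rfl fun k _ => ?_
  rw [Matrix.mulVec_diagonal, Matrix.mulVec_diagonal, mul_pow]
  obtain ⟨m, hm⟩ : ∃ m, q + 1 = 4 * m := ⟨(q + 1) / 4, by omega⟩
  have h2 : d k * d k ^ q = 1 := by
    rw [← pow_succ', hm, pow_mul, hd, one_pow]
  calc d k * u k * (d k ^ q * v k ^ q) = (d k * d k ^ q) * (u k * v k ^ q) := by ring
    _ = u k * v k ^ q := by rw [h2, one_mul]

end Cfsg.Agent.H590.Hall
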